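import Mathlib

set_option autoImplicit false

/-! # The alternating subgroup of a Coxeter group (Bourbaki's presentation)

For a Coxeter system and a base generator `b₀`, elements `y i` of a group `Γ` with
`y b₀ = 1` and `((y i)⁻¹ * y j) ^ M i j = 1` generate a subgroup which a homomorphism `π`
with `π (y i) = s b₀ * s i` maps injectively. -/

namespace Cfsg.Agent.Lib.Helper35.AltPres

variable {B : Type*} (M : CoxeterMatrix B) (b₀ : B)

/-- relators of the alternating subgroup -/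
def altRels : Set (FreeGroup B) :=
  {FreeGroup.of b₀} ∪
    Set.range (fun p : B × B => ((FreeGroup.of p.1)⁻¹ * FreeGroup.of p.2) ^ M p.1 p.2)

/-- the presented group -/
abbrev AltGrp : Type _ := PresentedGroup (altRels M b₀)

/-- its generators -/
def gen (i : B) : AltGrp M b₀ := PresentedGroup.of i

theorem gen_base : gen M b₀ b₀ = 1 := by
  have h : (FreeGroup.of b₀ : FreeGroup B) ∈ altRels M b₀ := Or.inl rfl
  exact PresentedGroup.one_of_mem h

theorem gen_rel (i j : B) : ((gen M b₀ i)⁻¹ * gen M b₀ j) ^ M i j = 1 := by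
  have h : ((FreeGroup.of i)⁻¹ * FreeGroup.of j) ^ M i j ∈ altRels M b₀ := Or.inr ⟨(i, j), rfl⟩
  have := PresentedGroup.one_of_mem h
  rw [map_pow, map_mul, map_inv] at this
  exact this

theorem gen_rel' (i j : B) : (gen M b₀ i * (gen M b₀ j)⁻¹) ^ M i j = 1 := by
  have h := gen_rel M b₀ j i
  rw [M.symmetric j i] at h
  have e : gen M b₀ i * (gen M b₀ j)⁻¹ =
      gen M b₀ i * ((gen M b₀ j)⁻¹ * gen M b₀ i) * (gen M b₀ i)⁻¹ := by group
  rw [e, conj_pow, h, mul_one, mul_inv_cancel]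

/-- the inverting endomorphism -/
def invHom : AltGrp M b₀ →* AltGrp M b₀ :=
  PresentedGroup.toGroup (f := fun i => (gen M b₀ i)⁻¹) (by
    intro r hr
    rcases hr with hr | ⟨⟨i, j⟩, rfl⟩
    · rw [Set.mem_singleton_iff] at hr
      subst hr
      rw [FreeGroup.lift_apply_of, gen_base, inv_one]
    · simp only [map_pow, map_mul, map_inv, FreeGroup.lift_apply_of, inv_inv]
      exact gen_rel' M b₀ i j)

theorem invHom_gen (i : B) : invHom M b₀ (gen M b₀ i) = (gen M b₀ i)⁻¹ :=
  PresentedGroup.toGroup.of _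

theorem invHom_invHom (x : AltGrp M b₀) : invHom M b₀ (invHom M b₀ x) = x := by
  have h : (invHom M b₀).comp (invHom M b₀) = MonoidHom.id _ := by
    apply PresentedGroup.ext
    intro i
    show invHom M b₀ (invHom M b₀ (gen M b₀ i)) = gen M b₀ i
    rw [invHom_gen, map_inv, invHom_gen, inv_inv]
  exact DFunLike.congr_fun h x

/-- the inverting permutation -/
def invEquiv : Equiv.Perm (AltGrp M b₀) :=
  ⟨invHom M b₀, invHom M b₀, invHom_invHom M b₀, invHom_invHom M b₀⟩

/-- images of the Coxeter generators -/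
def cox (i : B) : Equiv.Perm (AltGrp M b₀) :=
  MulAction.toPermHom (AltGrp M b₀) (AltGrp M b₀) (gen M b₀ i)⁻¹ * invEquiv M b₀

theorem cox_mul (i j : B) : cox M b₀ i * cox M b₀ j =
    MulAction.toPermHom (AltGrp M b₀) (AltGrp M b₀) ((gen M b₀ i)⁻¹ * gen M b₀ j) := by
  ext x
  show (gen M b₀ i)⁻¹ • invHom M b₀ ((gen M b₀ j)⁻¹ • invHom M b₀ x) = _
  rw [smul_eq_mul, smul_eq_mul, map_mul, map_inv, invHom_gen, inv_inv, invHom_invHom]
  show _ = ((gen M b₀ i)⁻¹ * gen M b₀ j) • x
  rw [smul_eq_mul, mul_assoc]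

theorem cox_liftable : M.IsLiftable (cox M b₀) := by
  intro i j
  rw [cox_mul, ← map_pow, gen_rel, map_one]

variable {M}

/-- **Bourbaki**: relations of the alternating subgroup suffice -/
theorem ker_inf_closure_eq_bot {W : Type*} [Group W] (cs : CoxeterSystem M W) {Γ : Type*}
    [Group Γ] (π : Γ →* W) (y : B → Γ) (hy0 : y b₀ = 1)
    (hrel : ∀ i j, ((y i)⁻¹ * y j) ^ M i j = 1)
    (hπ : ∀ i, π (y i) = cs.simple b₀ * cs.simple i) :
    π.ker ⊓ Subgroup.closure (Set.range y) = ⊥ := by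
  have hy : ∀ r ∈ altRels M b₀, FreeGroup.lift y r = 1 := by
    intro r hr
    rcases hr with hr | ⟨⟨i, j⟩, rfl⟩
    · rw [Set.mem_singleton_iff] at hr
      subst hr
      rw [FreeGroup.lift_apply_of, hy0]
    · simp only [map_pow, map_mul, map_inv, FreeGroup.lift_apply_of]
      exact hrel i j
  let lam : AltGrp M b₀ →* Γ := PresentedGroup.toGroup hy
  have hlam : ∀ i, lam (gen M b₀ i) = y i := fun i => PresentedGroup.toGroup.of hy
  let Φ : W →* Equiv.Perm (AltGrp M b₀) := cs.lift ⟨cox M b₀, cox_liftable M b₀⟩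
  have hΦ : ∀ i, Φ (cs.simple i) = cox M b₀ i := fun i => cs.lift_apply_simple _ i
  have hcomp : (Φ.comp (π.comp lam)) = MulAction.toPermHom (AltGrp M b₀) (AltGrp M b₀) := by
    apply PresentedGroup.ext
    intro i
    show Φ (π (lam (gen M b₀ i))) = MulAction.toPermHom _ _ (gen M b₀ i)
    rw [hlam, hπ, map_mul, hΦ, hΦ, cox_mul, gen_base, inv_one, one_mul]
  have hle : Subgroup.closure (Set.range y) ≤ lam.range := by
    rw [Subgroup.closure_le]
    rintro _ ⟨i, rfl⟩
    exact ⟨gen M b₀ i, hlam i⟩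
  rw [eq_bot_iff]
  rintro x ⟨hx1, hx2⟩
  obtain ⟨ρ, rfl⟩ := hle hx2
  have h1 : MulAction.toPermHom (AltGrp M b₀) (AltGrp M b₀) ρ = 1 := by
    rw [← hcomp]
    show Φ (π (lam ρ)) = 1
    rw [MonoidHom.mem_ker.mp hx1, map_one]
  have h2 : ρ = 1 := by
    have := congrArg (fun σ : Equiv.Perm (AltGrp M b₀) => σ 1) h1
    simpa using this
  rw [h2, map_one]
  exact Subgroup.one_mem _

end Cfsg.Agent.Lib.Helper35.AltPres
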